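import Cfsg.Agent.H21.Division.Quaternion
import Cfsg.Agent.H21.NonSolvable
import Cfsg.Agent.H90.FrobeniusModule
import Mathlib.RingTheory.LittleWedderburn

/-!
Finite non-solvable multiplicative subgroups of division rings.
-/

namespace Cfsg.Agent.H21.Division

open Zass

variable {D : Type*} [DivisionRing D]

/-- A non-solvable finite multiplicative group forces characteristic zero. -/
theorem charZero_of_nonsolvable {G : Type*} [Group G] [Finite G] (f : G →* D)
    (hf : Function.Injective f) (hns : ¬ Group.IsSolvable G) : CharZero D := by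
  obtain ⟨p, hp⟩ := CharP.exists D
  rcases CharP.char_is_prime_or_zero D p with hpp | rfl
  · exfalso
    have := Fact.mk hpp
    let _ : Algebra (ZMod p) D := ZMod.algebra D p
    set M : Submodule (ZMod p) D := Submodule.span (ZMod p) (Set.range f) with hM
    have h1 : (1 : D) ∈ M := Submodule.subset_span ⟨1, map_one f⟩
    have hmul : ∀ x y : D, x ∈ M → y ∈ M → x * y ∈ M := by
      intro x y hx hy
      have := Submodule.mul_mem_mul hx hy
      rw [hM, Submodule.span_mul_span] at this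
      refine Submodule.span_mono ?_ this
      rintro _ ⟨_, ⟨a, rfl⟩, _, ⟨b, rfl⟩, rfl⟩
      exact ⟨a * b, map_mul f a b⟩
    let S : Subalgebra (ZMod p) D := M.toSubalgebra h1 hmul
    have : Module.Finite (ZMod p) M := Module.Finite.span_of_finite (ZMod p) (Set.finite_range f)
    have : Finite M := Module.finite_of_finite (ZMod p)
    have : Finite S := ‹Finite M›
    have hF := Finite.isDomain_to_isField S
    refine hns (Group.isSolvable_of_comm fun a b => hf ?_)
    rw [map_mul, map_mul]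
    exact congrArg Subtype.val (hF.mul_comm ⟨f a, Submodule.subset_span ⟨a, rfl⟩⟩
      ⟨f b, Submodule.subset_span ⟨b, rfl⟩⟩)
  · exact CharP.charP_to_charZero D

/-- Elements of order 3 satisfy `X² + X + 1 = 0`. -/
theorem cube_eq {X : D} (h : X * X * X = 1) (h1 : X ≠ 1) : X * X + X + 1 = 0 := by
  have e : (X - 1) * (X * X + X + 1) = X * X * X - 1 := by noncomm_ring
  rw [h, sub_self] at e
  exact (mul_eq_zero.mp e).resolve_left (sub_ne_zero.mpr h1)

/-- The trace of a product of two elements of order 3. -/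
theorem mul_add_inv {X Y : D} (hX : X * X + X + 1 = 0) (hY : Y * Y + Y + 1 = 0) :
    X * Y + (X * Y)⁻¹ = cval X Y + 1 := by
  have key : ∀ {Z : D}, Z * Z + Z + 1 = 0 → Z⁻¹ = -1 - Z := by
    intro Z hZ
    refine inv_eq_of_mul_eq_one_right ?_
    rw [← sub_eq_zero, ← neg_eq_zero, ← hZ]; noncomm_ring
  rw [mul_inv_rev, key hX, key hY, cval]; noncomm_ring

/-- Reversing the second element. -/
theorem cval_inv_div {X Y : D} (hY : Y * Y + Y + 1 = 0) : cval X Y⁻¹ = -1 - cval X Y := by
  have : Y⁻¹ = -1 - Y := by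
    refine inv_eq_of_mul_eq_one_right ?_
    rw [← sub_eq_zero, ← neg_eq_zero, ← hY]; noncomm_ring
  rw [this, cval, cval]; noncomm_ring

/-- An element whose tenth power is `1` and whose square is not. -/
theorem five_rel_div {g : D} (h10 : g ^ 5 * g ^ 5 = 1) (h2 : g * g ≠ 1) :
    ∃ ε : ℤ, (ε = 1 ∨ ε = -1) ∧ (g + g⁻¹) * (g + g⁻¹) + (ε : D) * (g + g⁻¹) = 1 := by
  rcases mul_self_eq_one_iff.mp h10 with h | h
  · refine ⟨1, Or.inl rfl, ?_⟩
    have h5 : g * g * g * g * g = 1 := by rw [← h]; simp only [pow_succ, pow_zero, one_mul]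
    have e : g⁻¹ = g * g * g * g :=
      inv_eq_of_mul_eq_one_right (by rw [← h5]; simp only [mul_assoc])
    rw [e, Int.cast_one, one_mul]
    exact five_relation h5 (sub_ne_zero.mpr fun e1 => h2 (by rw [e1, one_mul])).isUnit
  · refine ⟨-1, Or.inr rfl, ?_⟩
    have h5 : g * g * g * g * g = -1 := by rw [← h]; simp only [pow_succ, pow_zero, one_mul]
    have e : g⁻¹ = -(g * g * g * g) :=
      inv_eq_of_mul_eq_one_right (by rw [mul_neg, ← neg_eq_iff_eq_neg.mpr h5]; simp only [mul_assoc])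
    have h5' : (-g) * (-g) * (-g) * (-g) * (-g) = 1 := by
      simp only [neg_mul, mul_neg, neg_neg, h5]
    have := five_relation h5' (sub_ne_zero.mpr fun e1 => h2 (by rw [← neg_mul_neg, e1, one_mul])).isUnit
    simp only [neg_mul, mul_neg, neg_neg] at this
    rw [e, Int.cast_neg, Int.cast_one, neg_one_mul]
    calc _ = (-g + g * g * g * g) * (-g + g * g * g * g) + (-g + g * g * g * g) := by noncomm_ring
      _ = 1 := this

theorem exists_four_group : ∃ a b : alternatingGroup (Fin 5),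
    a * a = 1 ∧ b * b = 1 ∧ a ≠ 1 ∧ b ≠ 1 ∧ a ≠ b ∧ a * b = b * a := by
  decide +kernel

/-- The 4-cycle. -/
def fourCycle : Equiv.Perm (Fin 5) := Equiv.swap 0 1 * Equiv.swap 1 2 * Equiv.swap 2 3

theorem exists_outer : ∃ u v : alternatingGroup (Fin 5), u * u = 1 ∧ u ≠ 1 ∧ v * v = 1 ∧ v ≠ 1 ∧
    (∀ a, MulAut.conjNormal fourCycle (MulAut.conjNormal fourCycle a) = u * a * u⁻¹) ∧
    ∀ a, v * MulAut.conjNormal fourCycle (v⁻¹ * MulAut.conjNormal fourCycle a * v) * v⁻¹ = a := by
  refine ⟨⟨Equiv.swap 0 2 * Equiv.swap 1 3, Equiv.Perm.mem_alternatingGroup.mpr (by decide)⟩,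
    ⟨Equiv.swap 0 1 * Equiv.swap 2 3, Equiv.Perm.mem_alternatingGroup.mpr (by decide)⟩, ?_⟩
  refine ⟨?_, ?_, ?_, ?_, ?_, ?_⟩ <;> decide +kernel

/-- A finite non-solvable group of units of a division ring is `SL(2,5)`. -/
theorem equiv_SL_of_nonsolvable {G : Type*} [Group G] [Finite G] (f : G →* D)
    (hf : Function.Injective f) (hns : ¬ Group.IsSolvable G) :
    Nonempty (G ≃* Matrix.SpecialLinearGroup (Fin 2) (ZMod 5)) := by
  classical
  have := charZero_of_nonsolvable f hf hns
  obtain ⟨r, hrle, hr⟩ := Nat.exists_infinite_primes (Nat.card G + 1)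
  have := Fact.mk hr
  have hrd : ¬ r ∣ Nat.card G := fun h => by have := Nat.le_of_dvd Nat.card_pos h; omega
  obtain ⟨n, ρ₀, hn, hρ₀⟩ := H90.isMatFPF_of_torsionFree f (fun p a hp ha => by
    have h : (f a - 1) * ∑ i ∈ Finset.range p, f a ^ i = f a ^ p - 1 := mul_geom_sum _ _
    rw [← map_pow, ← ha, pow_orderOf_eq_one, map_one, sub_self, ha] at h
    refine (mul_eq_zero.mp h).resolve_left (sub_ne_zero.mpr fun e => hp.ne_one ?_)
    rw [← ha, orderOf_eq_one_iff]; exact hf (e.trans (map_one f).symm)) r hrd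
  have : Nonempty (Fin n) := ⟨⟨0, hn⟩⟩
  obtain ⟨φ, hφ⟩ := H90.exists_mulAut_of_matrix ρ₀ hρ₀
  have : Nontrivial G := not_subsingleton_iff_nontrivial.mp fun h => hns inferInstance
  obtain ⟨G₀, hG₀n, hidx, S, M, hSn, hsup, -, hcomm, ⟨e⟩, -, -, -, hcop⟩ :=
    exists_sl_times_zgroup φ hφ hns
  obtain ⟨k, _, _, V, _, _, _, _, ρ, hρ⟩ := exists_rep φ hφ
  obtain ⟨θ₀, C₀, hθ₀, w₀, hw₀, hwθ₀⟩ := exists_cover_SL
  let θ : S →* alternatingGroup (Fin 5) := θ₀.comp e.toMonoidHom
  have C : IsCover θ := ⟨fun g hg => e.injective (by rw [map_mul, map_one]; exact C₀.ker (e g) hg),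
    (hρ.comp S.subtype_injective).invol_central⟩
  have hθ : Function.Surjective θ := hθ₀.comp e.surjective
  obtain ⟨z, hz⟩ := e.surjective w₀
  have hzi : IsInvol z := (isInvol_map (f := e.toMonoidHom) e.injective).mp
    (by show IsInvol (e z); rw [hz]; exact hw₀)
  have hzθ : θ z = 1 := by show θ₀ (e z) = 1; rw [hz]; exact hwθ₀
  have hcard : Nat.card S = 120 := by
    have h2 : Nat.card θ.ker = 2 := by
      rw [Nat.card_eq_two_iff]
      refine ⟨1, ⟨z, hzθ⟩, fun h => hzi.2 (congrArg Subtype.val h).symm, ?_⟩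
      refine Set.eq_univ_of_forall fun a => ?_
      by_cases ha : (a : S) = 1
      · exact Or.inl (Subtype.ext ha)
      · exact Or.inr (Subtype.ext ((C.invol _ hzi).2 _ ⟨C.ker _ a.2, ha⟩))
    have h := θ.ker.index_mul_card
    rw [h2, Subgroup.index_ker, MonoidHom.range_eq_top.mpr hθ, Subgroup.card_top,
      Nat.card_eq_fintype_card] at h
    have h60 : Fintype.card (alternatingGroup (Fin 5)) = 60 := by decide +kernel
    omega
  -- the map into the division ring
  let F : S →* D := f.comp S.subtype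
  have hF : Function.Injective F := hf.comp S.subtype_injective
  have hFz : F z = -1 := (mul_self_eq_one_iff.mp (by rw [← map_mul, hzi.1, map_one])).resolve_left
    fun h => hzi.2 (hF (h.trans F.map_one.symm))
  have hz' : f (z : G) = -1 := hFz
  have pm : ∀ c : G, f c * f c = 1 → c = 1 ∨ c = z := fun c hc => by
    rcases mul_self_eq_one_iff.mp hc with h | h
    · exact Or.inl (hf (h.trans f.map_one.symm))
    · exact Or.inr (hf (h.trans hz'.symm))
  have pmS : ∀ c : G, (c = 1 ∨ c = z) → c ∈ S := by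
    rintro c (rfl | rfl)
    exacts [one_mem _, z.2]
  have pmθ : ∀ (c : S), ((c : G) = 1 ∨ (c : G) = z) → θ c = 1 := by
    rintro c (h | h)
    · rw [show c = 1 from Subtype.ext h, map_one]
    · rw [show c = z from Subtype.ext h, hzθ]
  have hsq : ∀ s : S, θ s * θ s = 1 → θ s ≠ 1 → F s * F s = -1 := by
    intro s h1 h2
    have h4 : (F s * F s) * (F s * F s) = 1 := by
      rw [← map_mul, ← map_mul, C.ker (s * s) (by rw [map_mul, h1]), map_one]
    exact (mul_self_eq_one_iff.mp h4).resolve_left fun h => h2 (pmθ s (pm s h))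
  -- a far pair
  obtain ⟨b₀, hb, hb1, hb2⟩ := exists_far_base
  have hbase : base * base * base = 1 ∧ base ≠ 1 := by decide +kernel
  obtain ⟨x, hx, ex⟩ := C.lift_three hθ hbase.1 hbase.2
  obtain ⟨y, hy, ey⟩ := C.lift_three hθ hb fun h => hb1 (by rw [h, one_mul, mul_one])
  have hfar : IsFar (θ x) (θ y) := by rw [ex, ey]; exact ⟨hbase.1, hbase.2, hb, hb1, hb2⟩
  have hgen := closure_far_pair hρ hcard C hx hy hfar
  have hne : x * y ≠ y * x := fun h => hfar.2.2.2.1 ((C.commute_iff hx hy).mpr h)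
  have hr : ¬ RelG x y := fun h => hfar.2.2.2.2 ((C.rel_iff hx hy).mpr h)
  have hXX : F x * F x + F x + 1 = 0 :=
    cube_eq (by rw [← map_mul, ← map_mul, hx.1, map_one]) fun h => hx.2 (hF (h.trans F.map_one.symm))
  have hYY : F y * F y + F y + 1 = 0 :=
    cube_eq (by rw [← map_mul, ← map_mul, hy.1, map_one]) fun h => hy.2 (hF (h.trans F.map_one.symm))
  have hrel : ∀ y' : S, IsThree y' → x * y' ≠ y' * x → ¬ RelG x y' →
      ∃ ε : ℤ, (ε = 1 ∨ ε = -1) ∧
        (F (x * y') + (F (x * y'))⁻¹) * (F (x * y') + (F (x * y'))⁻¹) +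
          (ε : D) * (F (x * y') + (F (x * y'))⁻¹) = 1 := by
    intro y' hy' hne' hr'
    refine five_rel_div ?_ fun h => hne' ?_
    · rw [← map_pow, ← map_mul, ((C.pair_facts hx hy').1 hne' hr').1, map_one]
    · rcases pm ((x * y' : S) : G) h with e1 | e1
      · have e2 : x * y' = 1 := Subtype.ext e1
        rw [e2, (mul_eq_one_comm.mp e2)]
      · have e2 : x * y' = z := Subtype.ext e1
        have hc := (C.invol _ hzi).1 x
        rw [← e2, mul_assoc] at hc
        exact (mul_left_cancel hc).symm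
  obtain ⟨ε, hε, h₁⟩ := hrel y hy hne hr
  obtain ⟨ε', hε', h₂⟩ := hrel y⁻¹ (isThree_inv hy) (fun h => hne (Commute.inv_right_iff.mp h))
    (fun h => hr (inv_inv y ▸ h.inv_right))
  set d := cval (F x) (F y) with hd
  have hYY' : (F y)⁻¹ * (F y)⁻¹ + (F y)⁻¹ + 1 = 0 := by
    rw [← map_inv]
    exact cube_eq (by rw [← map_mul, ← map_mul, (isThree_inv hy).1, map_one])
      fun h => (isThree_inv hy).2 (hF (h.trans F.map_one.symm))
  rw [map_mul, mul_add_inv hXX hYY, ← hd] at h₁
  rw [map_mul, map_inv, mul_add_inv hXX hYY', cval_inv_div hYY, ← hd] at h₂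
  have h₂' : d * d - (ε' : D) * d = 1 := by rw [← h₂]; noncomm_ring
  set e5 : D := 2 * d + 1 with he5
  have he : e5 * e5 = 5 := golden_div hε hε' h₁ h₂'
  have he0 : e5 ≠ 0 := fun h => by simp [h] at he
  have hdx : Commute d (f x) := commute_cval hXX (F y)
  have hdy : Commute d (f y) := by rw [hd, cval_comm]; exact commute_cval hYY (F x)
  have hdS : ∀ s ∈ S, Commute d (f s) := by
    intro s hs
    rw [← hgen] at hs
    induction hs using Subgroup.closure_induction with
    | mem u hu =>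
      rcases hu with rfl | rfl
      exacts [hdx, hdy]
    | one => rw [map_one]; exact Commute.one_right d
    | mul u v _ _ hu hv => rw [map_mul]; exact hu.mul_right hv
    | inv u _ hu => rw [map_inv]; exact hu.inv_right₀
  have heS : ∀ s ∈ S, Commute e5 (f s) := fun s hs =>
    ((Commute.ofNat_left 2 _).mul_left (hdS s hs)).add_left (Commute.one_left _)
  -- quaternion units
  obtain ⟨a, b, ha, hbb, ha1, hbb1, hab, habc⟩ := exists_four_group
  obtain ⟨I, hI⟩ := hθ a
  obtain ⟨J, hJ⟩ := hθ b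
  have hI2 : F I * F I = -1 := hsq I (by rw [hI, ha]) (by rw [hI]; exact ha1)
  have hJ2 : F J * F J = -1 := hsq J (by rw [hJ, hbb]) (by rw [hJ]; exact hbb1)
  have hIJ : F I * F J = -(F J * F I) := by
    have hnc : I * J ≠ J * I := fun h => by
      rcases (C.commute_iff_image (fun c hc => pmθ c (pm _ (by rw [← map_mul, ← S.coe_mul, hc.1]; simp)))
        (by rw [hI, ha]) (by rw [hJ, hbb])).mp h with h' | h' | h'
      exacts [ha1 (hI ▸ h'), hbb1 (hJ ▸ h'), hab (by rw [← hI, ← hJ, h'])]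
    have hk : θ (I * J * (J * I)⁻¹) = 1 := by
      rw [map_mul, map_inv, map_mul, map_mul, hI, hJ, habc, mul_inv_cancel]
    rcases mul_self_eq_one_iff.mp (show F (I * J * (J * I)⁻¹) * F (I * J * (J * I)⁻¹) = 1 by
      rw [← map_mul, C.ker _ hk, map_one]) with h | h
    · exact absurd (mul_inv_eq_one.mp (hF (h.trans F.map_one.symm))) hnc
    · calc F I * F J = F (I * J * (J * I)⁻¹) * F (J * I) := by
            rw [← map_mul, ← map_mul, inv_mul_cancel_right]
        _ = -(F J * F I) := by rw [h, neg_one_mul, map_mul]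
  -- the `Z`-group is trivial
  have hM : M = ⊥ := by
    by_contra hM
    obtain ⟨p, hp, hpd⟩ := Nat.exists_prime_and_dvd (n := Nat.card M)
      (fun h => hM (Subgroup.card_eq_one.mp h))
    have := Fact.mk hp
    have hp7 : 7 ≤ p := by
      by_contra hlt
      have h30 : p ∣ 30 → False := fun h =>
        hp.ne_one (Nat.dvd_one.mp (hcop ▸ Nat.dvd_gcd hpd h))
      have := hp.two_le
      interval_cases p <;> first | exact absurd hp (by decide) | exact h30 (by decide)
    obtain ⟨t, ht⟩ := exists_prime_orderOf_dvd_card' (G := M) p hpd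
    have ct : ∀ s ∈ S, Commute (f (t : G)) (f s) := fun s hs =>
      (show Commute (t : G) s from (hcomm s hs t t.2).symm).map f
    have ctX := ct _ x.2
    have ctY := ct _ y.2
    have td : Commute (f (t : G)) d :=
      (((ctX.mul_right ctY).add_right (ctY.mul_right ctX)).add_right ctX).add_right ctY
    refine no_commuting_root hp7 (t := f (t : G)) ?_ ?_ hI2 hJ2 hIJ he (heS _ I.2) (heS _ J.2)
      (ct _ I.2) (ct _ J.2) (((Commute.ofNat_right _ 2).mul_right td).add_right (Commute.one_right _))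
    · rw [← map_pow, ← Subgroup.coe_pow, ← ht, pow_orderOf_eq_one]; simp
    · intro h
      have : t = 1 := Subtype.ext (hf (h.trans f.map_one.symm))
      exact hp.ne_one (by rw [← ht, this, orderOf_one])
  rw [hM, sup_bot_eq] at hsup
  subst hsup
  rcases hidx with hidx | hidx
  · rw [Subgroup.index_eq_one] at hidx
    exact ⟨(Subgroup.topEquiv.symm.trans (MulEquiv.subgroupCongr hidx.symm)).trans e⟩
  exfalso
  have hG : Nat.card G = 240 := by rw [← S.index_mul_card, hidx, hcard]
  -- centralizer of `S`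
  have hcen : ∀ c : G, c * x = x * c → c * y = y * c → c = 1 ∨ c = z := by
    intro c hcx hcy
    have hc : c ∈ Subgroup.centralizer (S : Set G) := by
      rw [← hgen, Subgroup.centralizer_closure]
      rw [Subgroup.mem_centralizer_iff]
      rintro u (rfl | rfl)
      exacts [hcx.symm, hcy.symm]
    have inS : ∀ a : G, a ∈ Subgroup.centralizer (S : Set G) → a ∈ S → a = 1 ∨ a = z := by
      intro a ha haS
      refine pm a ?_
      rw [← map_mul, ← f.map_one]
      exact congrArg f (congrArg Subtype.val (C.ker ⟨a, haS⟩ (cover_centre hθ (s := ⟨a, haS⟩) ha)))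
    by_cases hcS : c ∈ S
    · exact inS c hc hcS
    have h2 : c * c ∈ S := (Subgroup.mul_mem_iff_of_index_two hidx).mpr Iff.rfl
    have h4 : c ^ 2 ^ 2 = 1 := by
      have : (c * c) * (c * c) = 1 := by
        rcases inS _ (mul_mem hc hc) h2 with h | h <;> rw [h]
        exacts [one_mul 1, congrArg Subtype.val hzi.1]
      rw [← this, show (2 : ℕ) ^ 2 = 4 from rfl]; simp only [pow_succ, pow_zero, one_mul, mul_assoc]
    refine pm c ?_
    rw [← map_mul, sq_of_mem_centralizer hρ C hθ 2 c hc h4, map_one]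
  -- every far pair is a conjugate of `(x, y)`
  let cj : G → S → S := fun g s => ⟨g * s * g⁻¹, hSn.conj_mem _ s.2 g⟩
  let P := {q : S × S // IsThree q.1 ∧ IsThree q.2 ∧ IsFar (θ q.1) (θ q.2)}
  have hP : Nat.card P ≤ 120 := by
    refine le_trans ?_ card_far
    refine Nat.card_le_card_of_injective (fun q : P => (⟨(θ q.1.1, θ q.1.2), q.2.2.2⟩ :
      {p : alternatingGroup (Fin 5) × alternatingGroup (Fin 5) // IsFar p.1 p.2})) fun q q' h => ?_
    have h' := congrArg Subtype.val h
    exact Subtype.ext (Prod.ext (C.inj q.2.1 q'.2.1 (congrArg Prod.fst h'))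
      (C.inj q.2.2.1 q'.2.2.1 (congrArg Prod.snd h')))
  have cj3 : ∀ g s, IsThree s → IsThree (cj g s) := fun g s hs =>
    (isThree_map (x := cj g s) S.subtype_injective).mp
      (isThree_conj ((isThree_map S.subtype_injective).mpr hs) g)
  have target : ∀ x' y' : S, IsThree x' → IsThree y' → IsFar (θ x') (θ y') →
      ∃ g : G, cj g x = x' ∧ cj g y = y' := by
    intro x' y' hx' hy' hfar'
    have cjmul : ∀ g, ∀ s t : S, cj g (s * t) = cj g s * cj g t := fun g s t => Subtype.ext (by
      show g * (↑(s * t)) * g⁻¹ = g * s * g⁻¹ * (g * t * g⁻¹)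
      rw [Subgroup.coe_mul]; group)
    have cjinj : ∀ g, Function.Injective (cj g) := fun g s t h => Subtype.ext (by
      simpa [cj] using congrArg Subtype.val h)
    have mem : ∀ g, IsFar (θ (cj g x)) (θ (cj g y)) := fun g =>
      ⟨(C.three_map (cj3 g x hx)).1, (C.three_map (cj3 g x hx)).2, (C.three_map (cj3 g y hy)).1,
        fun h => hne (cjinj g (by rw [cjmul, cjmul, (C.commute_iff (cj3 g x hx) (cj3 g y hy)).mp h])),
        fun h => hr (by
          have h1 := (relG_map S.subtype_injective).mpr ((C.rel_iff (cj3 g x hx) (cj3 g y hy)).mp h)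
          have h2 : RelG ((MulAut.conj g).toMonoidHom x) ((MulAut.conj g).toMonoidHom y) := h1
          exact (relG_map S.subtype_injective).mp ((relG_map (MulAut.conj g).injective).mp h2))⟩
    let Φ : G → P := fun g => ⟨(cj g x, cj g y), cj3 g x hx, cj3 g y hy, mem g⟩
    by_contra hno
    push Not at hno
    have := Fintype.ofFinite G
    have := Fintype.ofFinite P
    have h1 : (Finset.univ.image Φ).card < 120 := by
      refine lt_of_lt_of_le (Finset.card_lt_card (t := Finset.univ) ?_)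
        (by rw [Finset.card_univ, ← Nat.card_eq_fintype_card]; exact hP)
      refine Finset.ssubset_univ_iff.mpr fun h => ?_
      have := h.ge (Finset.mem_univ (⟨(x', y'), hx', hy', hfar'⟩ : P))
      obtain ⟨g, -, hg⟩ := Finset.mem_image.mp this
      exact hno g (congrArg (fun q : P => q.1.1) hg) (congrArg (fun q : P => q.1.2) hg)
    have h2 := Finset.card_le_mul_card_image (f := Φ) Finset.univ 2 fun q hq => by
      obtain ⟨g, -, rfl⟩ := Finset.mem_image.mp hq
      refine le_trans (Finset.card_le_card (t := {g, g * z}) fun h hh => ?_) Finset.card_le_two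
      simp only [Finset.mem_filter, Finset.mem_univ, true_and] at hh
      have key : ∀ s : S, cj h s = cj g s → g⁻¹ * h * s = s * (g⁻¹ * h) := fun s hs => by
        have hs' : h * s * h⁻¹ = g * s * g⁻¹ := congrArg Subtype.val hs
        calc g⁻¹ * h * s = g⁻¹ * (h * s * h⁻¹) * h := by group
          _ = s * (g⁻¹ * h) := by rw [hs']; group
      rcases hcen (g⁻¹ * h) (key x (congrArg (fun q : P => q.1.1) hh))
        (key y (congrArg (fun q : P => q.1.2) hh)) with e1 | e1
      · simp [inv_mul_eq_one.mp e1]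
      · simp [← e1]
    rw [Finset.card_univ, ← Nat.card_eq_fintype_card, hG] at h2
    omega
  -- outside elements anticommute with the root of five
  have hfary : IsFar (θ x) (θ y⁻¹) := by
    rw [map_inv]
    refine ⟨hfar.1, hfar.2.1, ?_, fun h => hfar.2.2.2.1 (Commute.inv_right_iff.mp h), fun h => ?_⟩
    · rw [← mul_inv_rev, ← mul_inv_rev, ← mul_assoc, hfar.2.2.1, inv_one]
    · refine hfar.2.2.2.2 ⟨hfar.2.2.2.1, h.2.symm.imp (fun h' => ?_) id⟩
      rwa [inv_inv] at h'
  obtain ⟨g₀, hg₀x, hg₀y⟩ := target x y⁻¹ hx (isThree_inv hy) hfary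
  have hg₀ : f g₀ * e5 = -(e5 * f g₀) := by
    have h1 : f g₀ * F x = F x * f g₀ :=
      (map_mul f _ _).symm.trans ((congrArg f (mul_inv_eq_iff_eq_mul.mp (congrArg Subtype.val hg₀x))).trans
        (map_mul f _ _))
    have h2 : f g₀ * F y = (F y)⁻¹ * f g₀ := by
      refine ((map_mul f _ _).symm.trans ((congrArg f (mul_inv_eq_iff_eq_mul.mp
        (congrArg Subtype.val hg₀y))).trans (map_mul f _ _))).trans ?_
      rw [← map_inv F]; rfl
    have h3 : f g₀ * d = (-1 - d) * f g₀ := by
      rw [hd, ← cval_inv_div hYY, cval, cval]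
      simp only [mul_add, add_mul, ← mul_assoc, h1, h2]
      simp only [mul_assoc, h1, h2]
    rw [he5]
    calc f g₀ * (2 * d + 1) = 2 * (f g₀ * d) + f g₀ := by noncomm_ring
      _ = 2 * ((-1 - d) * f g₀) + f g₀ := by rw [h3]
      _ = -((2 * d + 1) * f g₀) := by noncomm_ring
  have hg₀S : g₀ ∉ S := fun h => by
    have e1 : 2 * (e5 * f g₀) = 0 := by
      rw [two_mul]; nth_rw 1 [(heS g₀ h).eq]; rw [hg₀, neg_add_cancel]
    rcases mul_eq_zero.mp e1 with h' | h'
    · exact two_ne_zero h'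
    · exact mul_ne_zero he0 ((Group.isUnit g₀).map f).ne_zero h'
  have hout : ∀ g : G, g ∉ S → e5 * f g = -(f g * e5) := fun g hg => by
    have hs : g₀⁻¹ * g ∈ S :=
      (Subgroup.mul_mem_iff_of_index_two hidx).mpr (iff_of_false (fun h => hg₀S (inv_inv g₀ ▸ inv_mem h)) hg)
    have e1 := (heS _ hs).eq
    have e2 : f g = f g₀ * f (g₀⁻¹ * g) := by rw [← map_mul, mul_inv_cancel_left]
    rw [e2, mul_assoc, ← e1, ← mul_assoc, ← mul_assoc, hg₀, neg_mul, neg_neg]
  -- lift the 4-cycle
  set τ : MulAut (alternatingGroup (Fin 5)) := MulAut.conjNormal fourCycle with hτ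
  obtain ⟨u, v, hu, hu1, hv, hv1, huτ, hvτ⟩ := exists_outer
  rw [← hτ] at huτ hvτ
  obtain ⟨x', hx', ex'⟩ := C.lift_three hθ (c := τ (θ x))
    (by rw [← map_mul, ← map_mul, hfar.1, map_one]) (fun h => hfar.2.1 (τ.injective (h.trans τ.map_one.symm)))
  obtain ⟨y', hy', ey'⟩ := C.lift_three hθ (c := τ (θ y))
    (by rw [← map_mul, ← map_mul, hfar.2.2.1, map_one])
    (fun h => hfar.2.2.2.1 (by rw [show θ y = 1 from τ.injective (h.trans τ.map_one.symm), one_mul, mul_one]))
  obtain ⟨g, hgx, hgy⟩ := target x' y' hx' hy' (by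
    rw [ex', ey']
    exact ⟨by rw [← map_mul, ← map_mul, hfar.1, map_one], fun h => hfar.2.1 (τ.injective (h.trans τ.map_one.symm)),
      by rw [← map_mul, ← map_mul, hfar.2.2.1, map_one],
      fun h => hfar.2.2.2.1 (τ.injective (by rw [map_mul, map_mul, h])),
      fun h => hfar.2.2.2.2 ((rel_map τ).mp h)⟩)
  let cjHom : G → (S →* S) := fun c =>
    { toFun := cj c
      map_one' := Subtype.ext (by simp [cj])
      map_mul' := fun s t => Subtype.ext (by
        show c * (↑(s * t)) * c⁻¹ = c * s * c⁻¹ * (c * t * c⁻¹)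
        rw [Subgroup.coe_mul]; group) }
  have hcjτ : ∀ s : S, θ (cj g s) = τ (θ s) := fun s => by
    have h : (θ.comp (cjHom g)) = τ.toMonoidHom.comp θ := by
      refine MonoidHom.eq_of_eqOn_dense (s := {x, y}) (closure_subtype_eq_top ?_) ?_
      · rw [Set.image_pair]; exact hgen
      · intro s hs
        rcases hs with h | h <;> rw [h]
        · show θ (cj g x) = τ (θ x)
          rw [hgx, ex']
        · show θ (cj g y) = τ (θ y)
          rw [hgy, ey']
    exact congrArg (fun h : S →* alternatingGroup (Fin 5) => h s) h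
  have hfix : ∀ c : G, θ (cj c x) = θ x → θ (cj c y) = θ y → c = 1 ∨ c = z := fun c h1 h2 =>
    hcen c (mul_inv_eq_iff_eq_mul.mp (congrArg Subtype.val (C.inj (cj3 c x hx) hx h1)))
      (mul_inv_eq_iff_eq_mul.mp (congrArg Subtype.val (C.inj (cj3 c y hy) hy h2)))
  have cjS : ∀ (w s : S), θ (cj w s) = θ w * θ s * (θ w)⁻¹ := fun w s => by
    rw [← map_mul, ← map_inv, ← map_mul]; rfl
  have cjcomp : ∀ (c c' : G) (s : S), cj (c * c') s = cj c (cj c' s) := fun c c' s => Subtype.ext (by
    show c * c' * s * (c * c')⁻¹ = c * (c' * s * c'⁻¹) * c⁻¹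
    group)
  obtain ⟨w, hw⟩ := hθ u
  obtain ⟨y₂, hy₂⟩ := hθ v
  have hw2 : F w * F w = -1 := hsq w (by rw [hw, hu]) (by rw [hw]; exact hu1)
  have hy22 : F y₂ * F y₂ = -1 := hsq y₂ (by rw [hy₂, hv]) (by rw [hy₂]; exact hv1)
  have hgg : (w : G)⁻¹ * (g * g) = 1 ∨ (w : G)⁻¹ * (g * g) = z := by
    refine hfix _ ?_ ?_ <;>
    · rw [cjcomp, cjcomp, ← Subgroup.coe_inv, cjS, hcjτ, hcjτ, huτ, map_inv, hw]
      group
  have hg2 : f g * f g = F w ∨ f g * f g = -F w := by
    rw [← map_mul, ← mul_inv_cancel_left (w : G) (g * g), map_mul f (w : G)]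
    rcases hgg with h | h <;> rw [h]
    · left; rw [map_one, mul_one]; rfl
    · right; rw [hz', mul_neg_one]; rfl
  have hgS : g ∉ S := fun h => by
    have e1 : θ (⟨g, h⟩ * ⟨g, h⟩) = u := by
      rcases hgg with h' | h'
      · rw [show (⟨g, h⟩ : S) * ⟨g, h⟩ = w from Subtype.ext (inv_mul_eq_one.mp h').symm, hw]
      · rw [show (⟨g, h⟩ : S) * ⟨g, h⟩ = w * z from Subtype.ext (by
          show g * g = w * z
          rw [← h', mul_inv_cancel_left]), map_mul, hw, hzθ, mul_one]
    refine hu1 (e1.symm.trans ?_)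
    rw [map_mul]
    refine sq_eq_one_of_two_pow (j := 2) ?_
    have : (θ ⟨g, h⟩) * (θ ⟨g, h⟩) * ((θ ⟨g, h⟩) * (θ ⟨g, h⟩)) = 1 := by rw [← map_mul, e1, hu]
    rw [← this, show (2 : ℕ) ^ 2 = 4 from rfl]; simp only [pow_succ, pow_zero, one_mul, mul_assoc]
  have hr4 : f g * f g * (f g * f g) = -1 := by
    rcases hg2 with h | h <;> rw [h]
    · exact hw2
    · rw [neg_mul_neg, hw2]
  have hconj : (y₂ : G) * g * (y₂ : G)⁻¹ * g = 1 ∨ (y₂ : G) * g * (y₂ : G)⁻¹ * g = z := by
    refine hfix _ ?_ ?_ <;>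
    · rw [cjcomp, cjcomp, cjcomp, ← Subgroup.coe_inv, cjS, hcjτ, cjS, hcjτ, map_inv, hy₂, inv_inv]
      exact hvτ _
  have hgy2 : (y₂ : G) * g * (y₂ : G)⁻¹ * g = 1 := hconj.resolve_right fun h => by
    have h' : f ((y₂ : G) * g) * f ((y₂ : G) * g) = 1 := by
      have hy0 : f (y₂ : G) ≠ 0 := ((Group.isUnit _).map f).ne_zero
      calc f ((y₂ : G) * g) * f ((y₂ : G) * g)
          = f (y₂ : G) * f g * (f (y₂ : G))⁻¹ * (f (y₂ : G) * f (y₂ : G)) * f g := by
            simp only [map_mul, mul_assoc, inv_mul_cancel_left₀ hy0]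
        _ = -(f ((y₂ : G) * g * (y₂ : G)⁻¹ * g)) := by
            rw [show f (y₂ : G) * f (y₂ : G) = -1 from hy22, map_mul, map_mul, map_mul, map_inv]
            simp only [mul_neg, mul_one, neg_mul]
        _ = 1 := by rw [h, hz', neg_neg]
    have hmem : (y₂ : G) * g ∈ S := pmS _ (pm _ h')
    exact hgS ((Subgroup.mul_mem_cancel_left S y₂.2).mp hmem)
  refine no_octahedral (e := e5) (r := f g) (y := F y₂) he hr4 hy22 ?_ (hout g hgS) (heS _ y₂.2)
  rw [← map_inv, show F y₂ = f (y₂ : G) from rfl, ← map_mul, ← map_mul]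
  congr 1
  calc (y₂ : G) * g = (y₂ : G) * g * (y₂ : G)⁻¹ * g * g⁻¹ * y₂ := by group
    _ = g⁻¹ * y₂ := by rw [hgy2, one_mul]

end Cfsg.Agent.H21.Division
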