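import Mathlib.NumberTheory.LSeries.PrimesInAP
import Mathlib.NumberTheory.LegendreSymbol.Basic
import Mathlib.NumberTheory.LegendreSymbol.QuadraticChar.Basic
import Mathlib.NumberTheory.LegendreSymbol.AddCharacter
import Mathlib.NumberTheory.GaussSum
import Mathlib.NumberTheory.Cyclotomic.Basic
import Mathlib.NumberTheory.Cyclotomic.PrimitiveRoots
import Mathlib.RingTheory.Polynomial.Cyclotomic.Roots
import Mathlib.Tactic

/-!
Norm forms `A² + q B²` for cyclotomic polynomials, and sums of two squares over the field with `√5`.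
-/

namespace Cfsg.Agent.H21.Division

open Polynomial

/-- For a prime `p ≥ 7` there is a prime `q ≡ 3 (mod 20)` that is not a square modulo `p`. -/
theorem exists_auxiliary_prime {p : ℕ} [Fact p.Prime] (hp : 7 ≤ p) :
    ∃ q : ℕ, q.Prime ∧ q % 20 = 3 ∧ (q : ZMod p) ^ (p / 2) = -1 := by
  have hF : ringChar (ZMod p) ≠ 2 := by rw [ZMod.ringChar_zmod_n]; omega
  obtain ⟨a, ha⟩ := FiniteField.exists_nonsquare hF
  have ha0 : a ≠ 0 := fun e => ha (e ▸ IsSquare.zero)
  have hcop : Nat.Coprime 20 p := Nat.Coprime.symm ((Nat.Prime.coprime_iff_not_dvd Fact.out).mpr fun h => by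
    have h1 := Nat.le_of_dvd (by norm_num) h
    have h2 : p.Prime := Fact.out
    interval_cases p <;> norm_num at *)
  let e := ZMod.chineseRemainder hcop
  have hu : IsUnit (e.symm (3, a)) :=
    (Prod.isUnit_iff.mpr ⟨(show IsUnit (3 : ZMod 20) by decide), Ne.isUnit ha0⟩).map e.symm
  have : NeZero (20 * p) := ⟨by omega⟩
  obtain ⟨q, -, hq, hqa⟩ := Nat.forall_exists_prime_gt_and_eq_mod hu 0
  have h := congrArg e hqa
  rw [RingEquiv.apply_symm_apply, map_natCast, Prod.ext_iff] at h
  simp only [Prod.fst_natCast, Prod.snd_natCast] at h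
  refine ⟨q, hq, ?_, ?_⟩
  · rw [← ZMod.val_natCast, h.1]; rfl
  · rw [h.2]
    exact (ZMod.pow_div_two_eq_neg_one_or_one p ha0).resolve_left
      fun e1 => ha ((ZMod.euler_criterion p ha0).mpr e1)

/-- A prime `q ≡ 3 (mod 20)` has twice itself of the form `s² + 5 r²`. -/
theorem exists_five_form {q : ℕ} (hq : q.Prime) (h20 : q % 20 = 3) :
    ∃ s r : ℚ, s * s + 5 * (r * r) = 2 * q := by
  have : Fact q.Prime := ⟨hq⟩
  -- `-5` is a square modulo `q`
  obtain ⟨c, hc⟩ : IsSquare (-5 : ZMod q) := by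
    have h4 : q % 4 = 3 := by omega
    have h5 : ¬ IsSquare (5 : ZMod q) := by
      intro h
      have : Fact (Nat.Prime 5) := ⟨by norm_num⟩
      have h' : IsSquare ((5 : ℕ) : ZMod q) := by exact_mod_cast h
      rw [← ZMod.exists_sq_eq_prime_iff_of_mod_four_eq_one (p := 5) (q := q) (by norm_num) (by omega)] at h'
      rw [← ZMod.natCast_mod q 5, show q % 5 = 3 by omega] at h'
      exact (show ∀ x : ZMod 5, ((3 : ℕ) : ZMod 5) ≠ x * x from by clear! h'; decide +revert) _ h'.choose_spec
    have hm1 : ¬ IsSquare (-1 : ZMod q) := fun h => ZMod.exists_sq_eq_neg_one_iff.mp h h4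
    by_cases h : IsSquare (-5 : ZMod q)
    · exact h
    · exfalso
      have hF : ringChar (ZMod q) ≠ 2 := by rw [ZMod.ringChar_zmod_n]; omega
      have h50 : (5 : ZMod q) ≠ 0 := by
        intro e
        have : ((5 : ℕ) : ZMod q) = 0 := by exact_mod_cast e
        rw [ZMod.natCast_eq_zero_iff] at this
        have := Nat.le_of_dvd (by norm_num) this
        interval_cases q <;> norm_num at *
      have e1 := quadraticChar_neg_one_iff_not_isSquare.mpr hm1
      have e2 := quadraticChar_neg_one_iff_not_isSquare.mpr h5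
      have e3 := quadraticChar_neg_one_iff_not_isSquare.mpr h
      rw [show (-5 : ZMod q) = -1 * 5 by ring, map_mul, e1, e2] at e3
      norm_num at e3
  -- two small numbers congruent up to the factor `c`
  set m := Nat.sqrt q with hm
  obtain ⟨u, hu, v, hv, huv, he⟩ := Finset.exists_ne_map_eq_of_card_lt_of_maps_to
    (s := (Finset.range (m + 1) ×ˢ Finset.range (m + 1))) (t := (Finset.univ : Finset (ZMod q)))
    (f := fun u : ℕ × ℕ => (u.1 : ZMod q) - c * u.2)
    (by
      rw [Finset.card_univ, ZMod.card, Finset.card_product, Finset.card_range]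
      exact Nat.lt_succ_sqrt q)
    (fun _ _ => Finset.mem_univ _)
  simp only [Finset.mem_product, Finset.mem_range] at hu hv
  set a : ℤ := (u.1 : ℤ) - v.1 with ha
  set b : ℤ := (u.2 : ℤ) - v.2 with hb
  have hab : (a : ZMod q) = c * b := by
    rw [ha, hb]; push_cast; linear_combination he
  have hdvd : (q : ℤ) ∣ a * a + 5 * (b * b) := by
    rw [← ZMod.intCast_zmod_eq_zero_iff_dvd]
    push_cast
    rw [hab]
    linear_combination (-(b : ZMod q) * b) * hc
  have hsq : (m : ℤ) * m < q := by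
    have h1 : m * m ≤ q := Nat.sqrt_le q
    rcases h1.lt_or_eq with h | h
    · exact_mod_cast h
    · rcases hq.eq_one_or_self_of_dvd m ⟨m, h.symm⟩ with h2 | h2 <;> rw [h2] at h <;> nlinarith [hq.two_le]
  have habs : a * a ≤ (m : ℤ) * m ∧ b * b ≤ (m : ℤ) * m := by
    constructor <;> (simp only [ha, hb]; nlinarith [hu.1, hu.2, hv.1, hv.2])
  obtain ⟨k, hk⟩ := hdvd
  have hpos : 0 < a * a + 5 * (b * b) := by
    rcases eq_or_ne a 0 with h | h
    · rcases eq_or_ne b 0 with h' | h'
      · exact absurd (Prod.ext (by omega) (by omega)) huv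
      · nlinarith [mul_self_pos.mpr h']
    · nlinarith [mul_self_pos.mpr h, mul_self_nonneg b]
  have hk0 : 0 < k := by nlinarith
  have hk6 : k < 6 := by nlinarith
  have hq5 : (q : ℤ) % 5 = 3 := by omega
  have m5 : ∀ x : ℤ, x * x % 5 = 0 ∧ x % 5 = 0 ∨ x * x % 5 = 1 ∨ x * x % 5 = 4 := by
    intro x
    have := Int.emod_nonneg x (show (5 : ℤ) ≠ 0 by norm_num)
    have := Int.emod_lt_of_pos x (show (0 : ℤ) < 5 by norm_num)
    rw [Int.mul_emod]
    interval_cases (x % 5) <;> norm_num
  have hmod : (q * k : ℤ) % 5 = (3 * k) % 5 := by rw [Int.mul_emod, hq5]; omega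
  interval_cases k
  · exfalso; rcases m5 a with h | h | h <;> omega
  · exact ⟨a, b, by exact_mod_cast hk.trans (mul_comm _ _)⟩
  · refine ⟨(a - 5 * b) / 3, (a + b) / 3, ?_⟩
    have hk' : (a : ℚ) * a + 5 * (b * b) = q * 3 := by exact_mod_cast hk
    linear_combination (2 / 3 : ℚ) * hk'
  · exfalso; rcases m5 a with h | h | h <;> omega
  · exfalso
    rcases m5 a with ⟨-, h⟩ | h | h
    · obtain ⟨a', ha'⟩ := Int.dvd_of_emod_eq_zero h
      rw [ha'] at hk
      have : b * b + 5 * (a' * a') = q := by linarith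
      rcases m5 b with h | h | h <;> omega
    all_goals omega

theorem exists_norm_form_aux {q : ℕ} [Fact q.Prime] {L : Type*} [Field L] [Algebra ℚ L]
    [FiniteDimensional ℚ L] {η g : L} (hη : IsPrimitiveRoot η q) (hgauss : g * g = -(q : L)) {m : ℕ}
    (hm : q = 2 * m + 1) (hrank : Module.finrank ℚ L = 2 * m) :
    ∃ A B : ℚ[X], cyclotomic q ℚ = A * A + (q : ℚ[X]) * (B * B) := by
  have hq : q.Prime := Fact.out
  let f : degreeLT ℚ (m + 1) × degreeLT ℚ (m + 1) →ₗ[ℚ] L :=
    ((aeval η).toLinearMap.comp (degreeLT ℚ (m + 1)).subtype).coprod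
      ((LinearMap.mulLeft ℚ g).comp ((aeval η).toLinearMap.comp (degreeLT ℚ (m + 1)).subtype))
  have : CharZero L := charZero_of_injective_algebraMap (algebraMap ℚ L).injective
  have : Module.Finite ℚ (degreeLT ℚ (m + 1)) := Module.Finite.equiv (degreeLTEquiv ℚ (m + 1)).symm
  have hker : LinearMap.ker f ≠ ⊥ := by
    refine LinearMap.ker_ne_bot_of_finrank_lt ?_
    rw [hrank, Module.finrank_prod, (degreeLTEquiv ℚ (m + 1)).finrank_eq, Module.finrank_fin_fun]
    omega
  obtain ⟨⟨⟨A, hA⟩, ⟨B, hB⟩⟩, hf, hne⟩ := Submodule.exists_mem_ne_zero_of_ne_bot hker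
  have hf' : aeval η A + g * aeval η B = 0 := hf
  set N : ℚ[X] := A * A + (q : ℚ[X]) * (B * B) with hN
  have hN0 : aeval η N = 0 := by
    simp only [hN, map_add, map_mul, map_natCast]
    linear_combination (aeval η A - g * aeval η B) * hf' + (aeval η B) ^ 2 * hgauss
  have hdvd : cyclotomic q ℚ ∣ N := by
    rw [cyclotomic_eq_minpoly_rat hη hq.pos]; convert minpoly.dvd ℚ η hN0 using 3 <;> first | rfl | exact Subsingleton.elim _ _
  obtain ⟨R, hR⟩ := hdvd
  have hNne : N ≠ 0 := by
    intro e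
    have hz : ∀ x : ℚ, A.eval x = 0 ∧ B.eval x = 0 := fun x => by
      have h := congrArg (eval x) e
      simp only [hN, eval_add, eval_mul, eval_natCast, eval_zero] at h
      have hq0 : (0 : ℚ) < q := by exact_mod_cast hq.pos
      have h1 := mul_self_nonneg (A.eval x)
      have h2 := mul_nonneg hq0.le (mul_self_nonneg (B.eval x))
      exact ⟨mul_self_eq_zero.mp (by linarith),
        mul_self_eq_zero.mp ((mul_eq_zero.mp (show (q : ℚ) * (B.eval x * B.eval x) = 0 by linarith)).resolve_left hq0.ne')⟩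
    refine hne (Prod.ext (Subtype.ext ?_) (Subtype.ext ?_))
    · exact Polynomial.funext fun x => by rw [(hz x).1]; simp
    · exact Polynomial.funext fun x => by rw [(hz x).2]; simp
  have hdeg : R.natDegree = 0 := by
    have hA' : A.natDegree ≤ m := by
      rcases eq_or_ne A 0 with rfl | h
      · simp
      · have := (natDegree_lt_iff_degree_lt h).mpr (mem_degreeLT.mp hA); omega
    have hB' : B.natDegree ≤ m := by
      rcases eq_or_ne B 0 with rfl | h
      · simp
      · have := (natDegree_lt_iff_degree_lt h).mpr (mem_degreeLT.mp hB); omega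
    have hle : N.natDegree ≤ 2 * m := by
      refine natDegree_add_le_of_degree_le ?_ ?_
      · exact natDegree_mul_le.trans (by omega)
      · refine natDegree_mul_le.trans ?_
        rw [natDegree_natCast, zero_add]
        exact natDegree_mul_le.trans (by omega)
    have hR0 : R ≠ 0 := fun e => hNne (by rw [hR, e, mul_zero])
    rw [hR, natDegree_mul (cyclotomic_ne_zero q ℚ) hR0, natDegree_cyclotomic,
      Nat.totient_prime hq] at hle
    omega
  rw [eq_C_of_natDegree_eq_zero hdeg] at hR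
  generalize R.coeff 0 = c at hR
  have hc : c ≠ 0 := fun e => hNne (by rw [hR, e, C_0, mul_zero])
  have hone : A.eval 1 * A.eval 1 + q * (B.eval 1 * B.eval 1) = q * c := by
    have h := congrArg (eval 1) hR
    simpa [hN, eval_one_cyclotomic_prime] using h
  have hq0 : (q : ℚ) ≠ 0 := by exact_mod_cast hq.ne_zero
  -- `c` is itself of the form `b² + q a²`
  refine ⟨C (B.eval 1 / c) * A - (q : ℚ[X]) * C (A.eval 1 / q / c) * B,
    C (A.eval 1 / q / c) * A + C (B.eval 1 / c) * B, ?_⟩
  have hcc : (B.eval 1 / c) * (B.eval 1 / c) + q * ((A.eval 1 / q / c) * (A.eval 1 / q / c)) = c⁻¹ := by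
    field_simp
    linear_combination hone
  calc cyclotomic q ℚ = C c⁻¹ * N := by
        rw [hR, mul_comm (cyclotomic q ℚ), ← mul_assoc, ← C_mul, inv_mul_cancel₀ hc, C_1, one_mul]
    _ = _ := by
        rw [← hcc, hN]
        simp only [C_add, C_mul, map_natCast]
        ring

/-- A cyclotomic polynomial of prime index `q ≡ 3 (mod 4)` is of the form `A² + q B²`. -/
theorem exists_norm_form {q : ℕ} [Fact q.Prime] (h4 : q % 4 = 3) :
    ∃ A B : ℚ[X], cyclotomic q ℚ = A * A + (q : ℚ[X]) * (B * B) := by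
  have hq : q.Prime := Fact.out
  have : NeZero q := ⟨hq.ne_zero⟩
  let L := CyclotomicField q ℚ
  have : IsCyclotomicExtension {q} ℚ L := CyclotomicField.isCyclotomicExtension q ℚ
  have hη := IsCyclotomicExtension.zeta_spec q ℚ L
  have hF : ringChar (ZMod q) ≠ 2 := by rw [ZMod.ringChar_zmod_n]; omega
  set χ : MulChar (ZMod q) L := (quadraticChar (ZMod q)).ringHomComp (Int.castRingHom L) with hχ
  have hχm : χ (-1) = -1 := by
    have h := quadraticChar_neg_one_iff_not_isSquare (F := ZMod q) (a := -1)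
    rw [hχ, MulChar.ringHomComp_apply, h.mpr fun h => ZMod.exists_sq_eq_neg_one_iff.mp h h4]
    simp
  have hχ1 : χ ≠ 1 := by
    intro e
    rw [e, MulChar.one_apply (isUnit_one.neg)] at hχm
    norm_num at hχm
  have hgauss := gaussSum_sq hχ1 ((quadraticChar_isQuadratic _).comp _)
      (AddChar.zmodChar_primitive_of_primitive_root q hη)
  rw [hχm, ZMod.card, neg_one_mul, pow_two] at hgauss
  obtain ⟨m, hm⟩ : ∃ m, q = 2 * m + 1 := ⟨q / 2, by omega⟩
  have : FiniteDimensional ℚ L := IsCyclotomicExtension.finiteDimensional {q} ℚ L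
  refine exists_norm_form_aux hη hgauss hm ?_
  rw [IsCyclotomicExtension.finrank L (cyclotomic.irreducible_rat hq.pos), Nat.totient_prime hq]
  omega

/-- For a prime `q` of the form `A² + q B²`-cyclotomic, the quotient `(X^(q^n) - 1)/(X - 1)` has the
same form. -/
theorem exists_norm_telescope {q : ℕ} [Fact q.Prime] (h4 : q % 4 = 3) (n : ℕ) :
    ∃ A B : ℚ[X], (A * A + (q : ℚ[X]) * (B * B)) * (X - 1) = X ^ q ^ n - 1 := by
  obtain ⟨A₁, B₁, h₁⟩ := exists_norm_form h4
  induction n with
  | zero => exact ⟨1, 0, by simp⟩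
  | succ n ih =>
    obtain ⟨A, B, h⟩ := ih
    set A' := A₁.comp (X ^ q ^ n)
    set B' := B₁.comp (X ^ q ^ n)
    refine ⟨A' * A - (q : ℚ[X]) * B' * B, A' * B + B' * A, ?_⟩
    have e : (A' * A' + (q : ℚ[X]) * (B' * B')) * (X ^ q ^ n - 1) = X ^ q ^ (n + 1) - 1 := by
      have := congrArg (fun P : ℚ[X] => P.comp (X ^ q ^ n)) (cyclotomic_prime_mul_X_sub_one ℚ q)
      rw [h₁] at this
      simp only [add_comp, mul_comp, natCast_comp, sub_comp, X_comp, one_comp, pow_comp] at this
      rw [this, ← pow_mul, pow_succ]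
    rw [← e, ← h]
    ring

end Cfsg.Agent.H21.Division
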