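import Cfsg.Agent.H21.Division.Norms
import Cfsg.Agent.H21.Zassenhaus.Algebra
import Mathlib.Algebra.CharP.Algebra

/-!
Identities in a division ring of characteristic zero containing quaternion units and a root of `5`.
-/

namespace Cfsg.Agent.H21.Division

open Polynomial

variable {D : Type*} [DivisionRing D]

/-- The product of `α ± X` for commuting `α` and `X`. -/
theorem add_mul_sub_of_commute {α X : D} (h : Commute α X) : (α + X) * (α - X) = α * α - X * X := by
  calc (α + X) * (α - X) = α * α - X * X + (X * α - α * X) := by noncomm_ring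
    _ = _ := by rw [h.symm.eq, sub_self, add_zero]

variable [CharZero D]

/-- No nontrivial root of unity of prime order at least 7 commutes with anticommuting square roots
of `-1` and a square root of `5`, all three in a division ring of characteristic zero. -/
theorem no_commuting_root {p : ℕ} [Fact p.Prime] (hp : 7 ≤ p) {t i j e : D} (ht : t ^ p = 1)
    (ht1 : t ≠ 1) (hi : i * i = -1) (hj : j * j = -1) (hij : i * j = -(j * i)) (he : e * e = 5)
    (ei : Commute e i) (ej : Commute e j) (ti : Commute t i) (tj : Commute t j) (te : Commute t e) :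
    False := by
  obtain ⟨q, hq, h20, hnr⟩ := exists_auxiliary_prime hp
  obtain ⟨s, r, hsr⟩ := exists_five_form hq h20
  have : Fact q.Prime := ⟨hq⟩
  set h := p / 2 with hh
  obtain ⟨A, B, hAB⟩ := exists_norm_telescope (q := q) (by omega) h
  have hp' : p.Prime := Fact.out
  have hodd : p = 2 * h + 1 := by
    have := (hp'.eq_two_or_odd).resolve_left (by omega); omega
  set u : D := t ^ h with hu
  set α : D := aeval t A
  set β : D := aeval t B
  -- the norm equation
  have hpow : t ^ q ^ h = t ^ (p - 1) := by
    have hmod : q ^ h ≡ p - 1 [MOD p] := by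
      rw [← ZMod.natCast_eq_natCast_iff, Nat.cast_pow, hnr, Nat.cast_sub hp'.one_le,
        ZMod.natCast_self, Nat.cast_one, zero_sub]
    exact pow_eq_pow_mod _ ht |>.trans (by rw [hmod]; exact (pow_eq_pow_mod _ ht).symm)
  have hnorm : α * α + (q : D) * (β * β) + u * u = 0 := by
    have h1 := congrArg (aeval t) hAB
    simp only [map_mul, map_add, map_sub, map_natCast, aeval_X, map_one, map_pow, hpow] at h1
    have h2 : u * u * (t - 1) = 1 - t ^ (p - 1) := by
      rw [hu, ← pow_add, mul_sub, mul_one, ← pow_succ, show h + h + 1 = p by omega, ht,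
        show h + h = p - 1 by omega]
    have h3 : (α * α + (q : D) * (β * β) + u * u) * (t - 1) = 0 := by
      rw [add_mul, h1, h2]; abel
    exact (mul_eq_zero.mp h3).resolve_right (sub_ne_zero.mpr ht1)
  -- everything in `ℚ[t]` commutes with `i`, `j` and `e`
  have cpoly : ∀ {x : D}, Commute t x → ∀ P : ℚ[X], Commute (aeval t P) x := by
    intro x hx P
    induction P using Polynomial.induction_on' with
    | add P Q hP hQ => rw [map_add]; exact hP.add_left hQ
    | monomial n a => rw [aeval_monomial]; exact (Algebra.commute_algebraMap_left a x).mul_left (hx.pow_left n)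
  obtain ⟨k, hk⟩ : ∃ k : D, k = i * j := ⟨_, rfl⟩
  set S : D := algebraMap ℚ D s
  set R : D := algebraMap ℚ D r
  set a : D := algebraMap ℚ D (1 / 2) * (S + e * R) with ha
  set b : D := algebraMap ℚ D (1 / 2) * (S - e * R) with hb
  have cab : ∀ {x : D}, Commute e x → Commute a x ∧ Commute b x := fun {x} hx =>
    ⟨(Algebra.commute_algebraMap_left _ x).mul_left ((Algebra.commute_algebraMap_left s x).add_left (hx.mul_left (Algebra.commute_algebraMap_left r x))),
      (Algebra.commute_algebraMap_left _ x).mul_left ((Algebra.commute_algebraMap_left s x).sub_left (hx.mul_left (Algebra.commute_algebraMap_left r x)))⟩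
  obtain ⟨ai, bi⟩ := cab ei
  obtain ⟨aj, bj⟩ := cab ej
  have ab : Commute a b := ((cab (Commute.refl e)).1.symm |> fun h =>
    ((Algebra.commute_algebraMap_right _ a)).mul_right ((Algebra.commute_algebraMap_right s a).sub_right
      (h.symm.mul_right (Algebra.commute_algebraMap_right r a))))
  have hq2 : a * a + b * b = (q : D) := by
    have hSR : S * S + 5 * (R * R) = 2 * (q : D) := by
      have := congrArg (algebraMap ℚ D) hsr
      simpa [S, R, map_natCast, map_ofNat] using this
    have e1 : e * R * (e * R) = 5 * (R * R) := by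
      rw [(Algebra.commute_algebraMap_left r e).mul_mul_mul_comm, he]
    have e2 : (S + e * R) * (S + e * R) + (S - e * R) * (S - e * R) = 2 * (S * S + e * R * (e * R)) := by
      noncomm_ring
    have h4 : algebraMap ℚ D (1 / 2) * algebraMap ℚ D (1 / 2) * 4 = 1 := by
      rw [show (4 : D) = algebraMap ℚ D 4 by simp, ← map_mul, ← map_mul]; norm_num
    calc a * a + b * b = algebraMap ℚ D (1 / 2) * algebraMap ℚ D (1 / 2) *
          ((S + e * R) * (S + e * R) + (S - e * R) * (S - e * R)) := by
          rw [ha, hb]
          rw [(Algebra.commute_algebraMap_right _ _).mul_mul_mul_comm,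
            (Algebra.commute_algebraMap_right _ _).mul_mul_mul_comm, ← mul_add]
      _ = algebraMap ℚ D (1 / 2) * algebraMap ℚ D (1 / 2) * 4 * (q : D) := by
          rw [e2, e1, hSR, ← mul_assoc (2 : D) 2, show (2 : D) * 2 = 4 by norm_num, mul_assoc _ (4 : D)]
      _ = (q : D) := by rw [h4, one_mul]
  obtain ⟨w, hw⟩ : ∃ w : D, w = a * i + b * j := ⟨_, rfl⟩
  have hji : j * i = -(i * j) := by rw [hij, neg_neg]
  have hw2 : w * w = -(q : D) := by
    have e3 : w * w = a * a * (i * i) + b * b * (j * j) + a * b * (i * j + j * i) := by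
      rw [hw, add_mul, mul_add, mul_add, ai.symm.mul_mul_mul_comm, bi.symm.mul_mul_mul_comm,
        aj.symm.mul_mul_mul_comm, bj.symm.mul_mul_mul_comm, ab.symm.eq, mul_add (a * b)]
      abel
    rw [e3, hi, hj, hji]
    simp only [add_neg_cancel, mul_zero, add_zero, mul_neg, mul_one]
    rw [← neg_add, hq2]
  have hki : k * i = -(i * k) := by
    rw [hk, mul_assoc, hji, mul_neg]
  have hkj : k * j = -(j * k) := by
    rw [hk, ← mul_assoc j, hji, neg_mul, neg_neg]
  have hk2 : k * k = -1 := by
    calc k * k = i * (j * i) * j := by simp only [hk, mul_assoc]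
      _ = -(i * i * (j * j)) := by rw [hji]; noncomm_ring
      _ = -1 := by rw [hi, hj]; simp
  have ak : Commute a k := hk ▸ ai.mul_right aj
  have bk : Commute b k := hk ▸ bi.mul_right bj
  have hwk : w * k + k * w = 0 := by
    rw [hw, add_mul, mul_add, ← mul_assoc k a, ← ak.eq, ← mul_assoc k b, ← bk.eq]
    simp only [mul_assoc, hki, hkj, mul_neg]
    abel
  -- commutation with `ℚ[t]`
  have ta : Commute t a := (Algebra.commute_algebraMap_right _ t).mul_right
    ((Algebra.commute_algebraMap_right s t).add_right (te.mul_right (Algebra.commute_algebraMap_right r t)))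
  have tb : Commute t b := (Algebra.commute_algebraMap_right _ t).mul_right
    ((Algebra.commute_algebraMap_right s t).sub_right (te.mul_right (Algebra.commute_algebraMap_right r t)))
  have tw : Commute t w := hw ▸ (ta.mul_right ti).add_right (tb.mul_right tj)
  have tk : Commute t k := hk ▸ ti.mul_right tj
  have uβ : Commute u β := ((cpoly (Commute.refl t) B).symm.pow_left h)
  set X' : D := β * w + u * k with hX
  have αX : Commute α X' :=
    ((cpoly (cpoly (Commute.refl t) B).symm A).mul_right (cpoly tw A)).add_right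
      ((cpoly ((Commute.refl t).pow_right h) A).mul_right (cpoly tk A))
  have hX2 : X' * X' = -((q : D) * (β * β)) - u * u := by
    rw [hX, add_mul, mul_add, mul_add, (cpoly tw B).symm.mul_mul_mul_comm,
      (tk.pow_left h).symm.mul_mul_mul_comm, (tw.pow_left h).symm.mul_mul_mul_comm,
      (cpoly tk B).symm.mul_mul_mul_comm, hw2, hk2, uβ.eq]
    calc β * β * -(q : D) + β * u * (w * k) + (β * u * (k * w) + u * u * -1)
        = -(β * β * (q : D)) + β * u * (w * k + k * w) - u * u := by noncomm_ring
      _ = _ := by rw [hwk, mul_zero, add_zero, ((q : ℕ).cast_commute (β * β)).symm.eq]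
  have h0 : (α + X') * (α - X') = 0 := by
    rw [add_mul_sub_of_commute αX, hX2, ← hnorm]; abel
  have hu0 : u ≠ 0 := pow_ne_zero _ fun e0 => by
    rw [e0, zero_pow hp'.ne_zero] at ht; exact zero_ne_one ht
  -- neither factor vanishes
  have key : ∀ β' u' : D, u' ≠ 0 → Commute β' k → Commute u' k → Commute u' i →
      α + (β' * w + u' * k) ≠ 0 := by
    intro β' u' hu' bk' uk' ui' h1
    have h2 : (α + (β' * w + u' * k)) * k + k * (α + (β' * w + u' * k)) = 2 * (α * k - u') := by
      rw [add_mul α, mul_add k α, ← (cpoly tk A).eq, add_mul, mul_add k, ← mul_assoc k β', ← bk'.eq,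
        ← mul_assoc k u', ← uk'.eq, mul_assoc u' k k, hk2]
      calc α * k + (β' * w * k + u' * -1) + (α * k + (β' * k * w + u' * -1))
          = 2 * (α * k - u') + β' * (w * k + k * w) := by noncomm_ring
        _ = _ := by rw [hwk, mul_zero, add_zero]
    rw [h1, zero_mul, mul_zero, add_zero] at h2
    have h3 : α * k = u' := sub_eq_zero.mp ((mul_eq_zero.mp h2.symm).resolve_left two_ne_zero)
    have h4 : α * (i * k) = 0 := by
      have e1 : α * k * i = i * (α * k) := by rw [h3, ui'.eq]
      rw [mul_assoc, hki, ← mul_assoc i, ← (cpoly ti A).eq, mul_assoc, mul_neg] at e1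
      have e2 : 2 * (α * (i * k)) = 0 := by rw [two_mul]; nth_rw 1 [← e1]; exact neg_add_cancel _
      exact (mul_eq_zero.mp e2).resolve_left two_ne_zero
    have hi0 : i ≠ 0 := fun e0 => by simp [e0] at hi
    have hk0 : k ≠ 0 := fun e0 => by simp [e0] at hk2
    rcases mul_eq_zero.mp h4 with h5 | h5
    · exact hu' (by rw [← h3, h5, zero_mul])
    · exact mul_ne_zero hi0 hk0 h5
  rcases mul_eq_zero.mp h0 with h1 | h1
  · exact key β u hu0 (cpoly tk B) (tk.pow_left h) (ti.pow_left h) h1
  · refine key (-β) (-u) (neg_ne_zero.mpr hu0) (cpoly tk B).neg_left (tk.pow_left h).neg_left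
      (ti.pow_left h).neg_left ?_
    rw [← h1, hX]; noncomm_ring

/-- An element of order 8 inverted by a square root of `-1` cannot anticommute with a square root
of `5` commuting with that root and with the square of the element. -/
theorem no_octahedral {e r y : D} (he : e * e = 5) (hr4 : r * r * (r * r) = -1) (hy : y * y = -1)
    (hyr : y * r = r⁻¹ * y) (er : e * r = -(r * e)) (ey : Commute e y) : False := by
  have hr0 : r ≠ 0 := fun e0 => by simp [e0] at hr4
  have hinv : r⁻¹ = -(r * (r * r)) := by
    refine (eq_inv_of_mul_eq_one_right ?_).symm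
    rw [mul_neg, ← mul_assoc, hr4, neg_neg]
  set i := r * r with hi
  have hyir : y * r⁻¹ = r * y := by
    calc y * r⁻¹ = r * (r⁻¹ * y) * r⁻¹ := by rw [mul_inv_cancel_left₀ hr0]
      _ = r * (y * r) * r⁻¹ := by rw [hyr]
      _ = r * y := by rw [mul_assoc, mul_inv_cancel_right₀ hr0]
  set c := r + r⁻¹ with hc
  have ec : e * c = -(c * e) := by
    have : e * r⁻¹ = -(r⁻¹ * e) := by
      calc e * r⁻¹ = r⁻¹ * (r * e) * r⁻¹ := by rw [inv_mul_cancel_left₀ hr0]
        _ = r⁻¹ * -(e * r) * r⁻¹ := by rw [er, neg_neg]
        _ = -(r⁻¹ * e) := by rw [mul_neg, neg_mul, mul_assoc, mul_inv_cancel_right₀ hr0]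
    rw [hc, mul_add, er, this, add_mul]; abel
  have hci : c * i = i * c := by
    rw [hc, hi, add_mul, mul_add, inv_mul_cancel_left₀ hr0, mul_inv_cancel_right₀ hr0, mul_assoc]
  have hcy : c * y = y * c := by
    rw [hc, add_mul, mul_add, hyr, hyir, add_comm]
  have hei : e * i = i * e := by
    rw [hi, ← mul_assoc, er, neg_mul, mul_assoc, er, mul_neg, neg_neg, mul_assoc]
  have hcc : c * c = 2 := by
    have hii : r⁻¹ * r⁻¹ = -i := by
      rw [← mul_inv_rev, ← hi]
      exact (eq_inv_of_mul_eq_one_right (by rw [mul_neg, hr4, neg_neg])).symm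
    rw [hc, add_mul, mul_add, mul_add, mul_inv_cancel₀ hr0, inv_mul_cancel₀ hr0, hii, ← hi,
      ← one_add_one_eq_two]
    abel
  set f := e + e * c with hf
  have hff : f * f = -5 := by
    have : f * f = e * e + (e * (e * c) + e * (c * e)) + e * (c * e) * c := by
      rw [hf]; noncomm_ring
    have h' : c * e = -(e * c) := by rw [ec, neg_neg]
    rw [this, h', mul_neg e, add_neg_cancel, neg_mul, ← mul_assoc, he, mul_assoc (5 : D), hcc,
      add_zero, show (5 : D) * 2 = 5 + 5 by rw [mul_two]]
    abel
  set g := 2 * i + y with hg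
  have hiy : i * y + y * i = 0 := by
    have : y * i = -(i * y) := by
      have hii : r⁻¹ * r⁻¹ = -i := by
        rw [← mul_inv_rev, ← hi]
        exact (eq_inv_of_mul_eq_one_right (by rw [mul_neg, hr4, neg_neg])).symm
      rw [hi, ← mul_assoc, hyr, mul_assoc, hyr, ← mul_assoc, hii, neg_mul]
    rw [this, add_neg_cancel]
  have hgg : g * g = -5 := by
    have : g * g = 4 * (i * i) + 2 * (i * y + y * i) + y * y := by
      rw [hg, show (4 : D) = 2 + 2 by norm_num]; simp only [two_mul, add_mul, mul_add]; abel
    rw [this, hiy, mul_zero, add_zero, hr4, hy, mul_neg, mul_one, ← neg_add,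
      show (4 : D) + 1 = 5 by norm_num]
  have hfg : Commute f g := by
    have h1 : Commute e g := ((Commute.ofNat_right e 2).mul_right hei).add_right ey
    have h2 : Commute c g := ((Commute.ofNat_right c 2).mul_right hci).add_right hcy
    exact h1.add_left (h1.mul_left h2)
  have heg : Commute e g := ((Commute.ofNat_right e 2).mul_right hei).add_right ey
  have hef : Commute e f := by
    rcases hfg.mul_self_eq_mul_self_iff.mp (hff.trans hgg.symm) with h | h <;> rw [h]
    exacts [heg, heg.neg_right]
  have h0 : e * e * c * 2 = 0 := by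
    have := hef.eq
    rw [hf, mul_add, add_mul, add_left_cancel_iff, mul_assoc e c e,
      show c * e = -(e * c) by rw [ec, neg_neg], mul_neg] at this
    rw [mul_two, mul_assoc e e c]
    nth_rw 1 [this]
    exact neg_add_cancel _
  rw [he] at h0
  rcases mul_eq_zero.mp h0 with h | h
  · rcases mul_eq_zero.mp h with h | h
    · norm_num at h
    · rw [h, mul_zero] at hcc; exact two_ne_zero hcc.symm
  · exact two_ne_zero h

/-- The two relations for the products of a far pair force a square root of `5`. -/
theorem golden_div {d : D} {ε ε' : ℤ} (hε : ε = 1 ∨ ε = -1) (hε' : ε' = 1 ∨ ε' = -1)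
    (h₁ : (d + 1) * (d + 1) + (ε : D) * (d + 1) = 1) (h₂ : d * d - (ε' : D) * d = 1) :
    (2 * d + 1) * (2 * d + 1) = 5 := by
  have hd : d * (d + 1) = d * d + d := by rw [mul_add, mul_one]
  rcases hε with rfl | rfl <;> rcases hε' with rfl | rfl <;>
    simp only [Int.cast_one, Int.cast_neg, one_mul, neg_mul, sub_neg_eq_add] at h₁ h₂
  · -- both products of order 5
    exfalso
    have h3 : 2 * (2 * d + 1) = 0 := by
      calc 2 * (2 * d + 1) = ((d + 1) * (d + 1) + (d + 1)) - (d * d - d) := by noncomm_ring
        _ = 0 := by rw [h₁, h₂, sub_self]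
    rcases mul_eq_zero.mp h3 with h | h
    · exact two_ne_zero h
    have h4 : (4 : D) * (d * d - d) = (2 * d + 1) * (2 * d + 1) - 4 * (2 * d + 1) + 3 := by
      noncomm_ring; simp
    rw [h₂, h, mul_zero, mul_zero, zero_sub, neg_zero, zero_add] at h4
    norm_num at h4
  · exfalso
    have h3 : 2 * (d + 1) = 0 := by
      calc 2 * (d + 1) = ((d + 1) * (d + 1) + (d + 1)) - (d * d + d) := by noncomm_ring
        _ = 0 := by rw [h₁, h₂, sub_self]
    rcases mul_eq_zero.mp h3 with h | h
    · exact two_ne_zero h
    rw [eq_neg_of_add_eq_zero_left h] at h₂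
    norm_num at h₂
  · exfalso
    have h3 : 2 * d = 0 := by
      calc 2 * d = ((d + 1) * (d + 1) + -(d + 1)) - (d * d - d) := by noncomm_ring
        _ = 0 := by rw [h₁, h₂, sub_self]
    rcases mul_eq_zero.mp h3 with h | h
    · exact two_ne_zero h
    rw [h] at h₂
    norm_num at h₂
  · calc (2 * d + 1) * (2 * d + 1) = 4 * (d * d + d) + 1 := by noncomm_ring
      _ = 5 := by rw [h₂]; norm_num

end Cfsg.Agent.H21.Division
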